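/-
The Rudvalis group as presented: its permutation representation of degree 4060, whose point stabiliser contains
a copy of the simple group of order 17971200 presented on four involutions (helper16).
-/
import Cfsg.Agent.Lib.ToddCox.RUO.Main
import Cfsg.Agent.Lib.ToddCox.RUO.BaseL
import Cfsg.Agent.Lib.ToddCox.TIO.Main
import Cfsg.Agent.Lib.ToddCox.WordHom
import Cfsg.Agent.Lib.ToddCox.PermPkg
import Cfsg.Prelude.Def_Sporadic
import Cfsg.Prelude.Def_Exceptional

set_option autoImplicit false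
set_option maxRecDepth 100000

namespace Cfsg.Agent.Lib.ToddCox.RuCov

open Cfsg.Spor Cfsg.Agent.Lib.ToddCox.RUO
open Cfsg.Agent.Lib.ToddCox.RUT (rels RL sg LT Iv Sl Gl letters rep_exists tab inv reach fix0 Sw)

theorem rep_faithful : ∃ ρ : PresentedGroup rels →* Equiv.Perm (Fin 4060),
    (∀ r (i : Fin 4060), ((ρ (PresentedGroup.mk rels r) i : Fin 4060) : ℕ) = tabW tab (relW sg r) i) ∧
      Function.Injective ρ ∧ Nat.card (PresentedGroup rels) = 145926144000 := rep_facts

theorem Sl_word_mem (s : FreeGroup Cfsg.Agent.Lib.ToddCox.OPRU.Gen) (hs : s ∈ Sl) : wordVal gen (relW sg s) ∈ subG rels Sl := by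
  rw [← mk_eq_word_gen letters]
  exact subG_mem hs

set_option linter.constructorNameAsVariable false

def EmbS : OPTI.Gen → List ℕ
  | .a => [2, 3, 4, 3, 1, 0, 3, 1, 0, 1, 4, 2]
  | .b => [0, 1, 3, 0, 1, 0, 3, 1, 3, 1, 0, 2]
  | .c => [2, 4, 2, 4, 2, 4]
  | .d => [1, 4, 1, 2, 4, 3, 4, 2, 1, 4, 1, 4]

def Embw (a : OPTI.Gen) : List ℕ := (EmbS a).flatMap (fun i => Sw.getD i [])

theorem Emb_let : ∀ r ∈ coxList OPTI.edges ++ OPTI.extra, ∀ a ∈ wsubst Embw inv r, a < 6 := by decide +kernel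
theorem Emb_fix : ∀ r ∈ coxList OPTI.edges ++ OPTI.extra, ∀ b ∈ baseL, tabW tab (wsubst Embw inv r) b = b := by decide +kernel

theorem Emb_rel : ∀ r ∈ coxList OPTI.edges ++ OPTI.extra, FreeGroup.lift (fun a => wordVal gen (Embw a)) r = 1 := by
  intro r hr
  rw [lift_eq_wsubst gen inv letters.genInv]
  exact word_one (Emb_let r hr) (Emb_fix r hr)

abbrev QEmb : Type := PresentedGroup (coxRelators OPTI.edges ∪ {r | r ∈ OPTI.extra})

noncomputable def φEmb : QEmb →* PresentedGroup rels := presMap OPTI.edges OPTI.extra _ Emb_rel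

theorem φEmb_ne : φEmb (PresentedGroup.of .a) ≠ 1 := by
  show presMap OPTI.edges OPTI.extra _ Emb_rel (PresentedGroup.of .a) ≠ 1
  rw [presMap_of]
  exact word_ne_one (by decide +kernel) (k := 1) (by norm_num) (by decide +kernel)

theorem φEmb_inj : Function.Injective φEmb := injective_of_simple TIO.main.1 φEmb φEmb_ne

theorem Emb_Sw : ∀ i, i < 6 → (Sw.getD i [] = relW sg (Sl.getD i 1) ∧ Sl.getD i 1 ∈ Sl) := by decide +kernel

theorem Emb_idx : ∀ a, ∀ i ∈ EmbS a, i < 6 := by
  intro a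
  cases a <;> decide +kernel

theorem φEmb_mem (q : QEmb) : φEmb q ∈ subG rels Sl := by
  have : φEmb.range ≤ subG rels Sl := by
    apply range_le_of_gens
    intro a
    show presMap OPTI.edges OPTI.extra _ Emb_rel (PresentedGroup.of a) ∈ _
    rw [presMap_of]
    apply wordVal_flatMap_mem
    intro i hi
    obtain ⟨h1, h2⟩ := Emb_Sw i (Emb_idx a i hi)
    rw [h1]
    exact Sl_word_mem _ h2
  exact this ⟨q, rfl⟩

theorem main_S0459 : ∃ H : Subgroup (Equiv.Perm (Fin 4060)), Cfsg.IsRu H ∧ MulAction.IsPretransitive H (Fin 4060) ∧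
    Nat.card (MulAction.stabilizer H (0 : Fin 4060)) = 35942400 ∧
    ∃ T : Subgroup (MulAction.stabilizer H (0 : Fin 4060)), Cfsg.IsTits T := by
  obtain ⟨ρ, hρ, hinj, hcard⟩ := rep_faithful
  have htrans := rep_trans hρ (by norm_num) reach
  have htrans' : ∀ i : Fin 4060, ∃ g, ρ g 0 = i := htrans
  have hstab : Nat.card (MulAction.stabilizer ρ.range (0 : Fin 4060)) = 35942400 := by
    have h := card_stabilizer_mul ρ hinj htrans'
    rw [hcard] at h
    exact Nat.eq_of_mul_eq_mul_right (by norm_num : 0 < 4060) (h.trans (by norm_num))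
  refine ⟨ρ.range, ?_, range_pretransitive ρ htrans', hstab, ?_⟩
  · obtain ⟨h1, h2⟩ := simple_range_of_inj RUO.main.1 ρ hinj
    exact ⟨h1, h2.trans hcard⟩
  · have hfix : ∀ g ∈ subG rels Sl, ρ g 0 = 0 := subG_fix hρ fix0
    let ι : QEmb →* MulAction.stabilizer ρ.range (0 : Fin 4060) :=
      (ρ.rangeRestrict.comp φEmb).codRestrict _ (fun q => by
        show ρ (φEmb q) 0 = 0
        exact hfix _ (φEmb_mem q))
    have hι : Function.Injective ι := by
      intro a b hab
      have h1 : ρ (φEmb a) = ρ (φEmb b) := congrArg (fun x => ((x : ρ.range) : Equiv.Perm (Fin 4060))) (congrArg Subtype.val hab)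
      exact φEmb_inj (hinj h1)
    obtain ⟨h1, h2⟩ := simple_range_of_inj TIO.main.1 ι hι
    exact ⟨ι.range, h1, h2.trans TIO.main.2⟩

end Cfsg.Agent.Lib.ToddCox.RuCov
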